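import Cfsg.Agent.H960.HT.Asm
import Cfsg.Agent.H312.HT.Def

/-! S3540: the row `SL5Row` from the form of `H312/HT` (`FaithSub`). -/

set_option autoImplicit false
set_option linter.unusedSectionVars false
set_option linter.unusedVariables false

namespace Cfsg.Agent.H960.HT

open Cfsg.Agent.H828.HT Cfsg.Agent.PermutationGroups.AutSL25 Cfsg.Agent.H312.HT

universe u

variable {p : ℕ} [Fact p.Prime] {V : Type u} [AddCommGroup V] [Module (ZMod p) V] [Finite V]

/-- a homogeneous normal subgroup of an irreducible group: the enveloping algebra acts faithfully on submodules -/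
theorem faithSub_of_homog {G N : Subgroup (V ≃ₗ[ZMod p] V)} (hirr : Irr G) (hN : ∀ g ∈ G, ∀ n ∈ N, g * n * g⁻¹ ∈ N)
    (hH : Homog N) [Nontrivial V] : FaithSub N := by
  classical
  intro W hW hinv a ha h0
  obtain ⟨M, hMW, hM⟩ := exists_nirr N hW hinv
  -- `a` preserves every invariant submodule
  have hpres : ∀ X : Submodule (ZMod p) V, (∀ n ∈ N, ∀ v ∈ X, n v ∈ X) → ∀ a ∈ Algebra.adjoin (ZMod p)
      ((fun g : V ≃ₗ[ZMod p] V => (g : V →ₗ[ZMod p] V)) '' (N : Set (V ≃ₗ[ZMod p] V))), ∀ v ∈ X, a v ∈ X := by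
    intro X hX a ha
    refine Algebra.adjoin_induction (p := fun a _ => ∀ v ∈ X, a v ∈ X) ?_ ?_ ?_ ?_ ha
    · rintro _ ⟨n, hn, rfl⟩ v hv
      exact hX n hn v hv
    · intro r v hv
      exact X.smul_mem r hv
    · intro x y _ _ hx hy v hv
      exact X.add_mem (hx v hv) (hy v hv)
    · intro x y _ _ hx hy v hv
      exact hx _ (hy v hv)
  have hkill : ∀ M' : Submodule (ZMod p) V, NIrr N M' → ∀ v ∈ M', a v = 0 := by
    intro M' hM' v hv
    obtain ⟨e, he⟩ := hH M M' hM hM'
    have key : ∀ a ∈ Algebra.adjoin (ZMod p)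
        ((fun g : V ≃ₗ[ZMod p] V => (g : V →ₗ[ZMod p] V)) '' (N : Set (V ≃ₗ[ZMod p] V))),
        ∀ v w : M, (w : V) = a v → (e w : V) = a (e v) := by
      intro a ha
      refine Algebra.adjoin_induction (p := fun a _ => ∀ v w : M, (w : V) = a v → (e w : V) = a (e v)) ?_ ?_ ?_ ?_ ha
      · rintro _ ⟨n, hn, rfl⟩ v w h
        exact he n hn v w h
      · intro r v w h
        have h1 : w = r • v := Subtype.ext h
        rw [h1, map_smul]
        rfl
      · intro x y hx' hy' hx hy v w h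
        have h1 := hx v ⟨x v, hpres M hM.inv x hx' v v.2⟩ rfl
        have h2 := hy v ⟨y v, hpres M hM.inv y hy' v v.2⟩ rfl
        have h3 : w = ⟨x v, hpres M hM.inv x hx' v v.2⟩ + ⟨y v, hpres M hM.inv y hy' v v.2⟩ := Subtype.ext h
        rw [h3, map_add, Submodule.coe_add, h1, h2]
        rfl
      · intro x y hx' hy' hx hy v w h
        have h2 := hy v ⟨y v, hpres M hM.inv y hy' v v.2⟩ rfl
        have h1 := hx ⟨y v, hpres M hM.inv y hy' v v.2⟩ w h
        rw [h1, h2]
        rfl
    have h1 := key a ha (e.symm ⟨v, hv⟩) 0 (by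
      rw [h0 _ (hMW (e.symm ⟨v, hv⟩).2)]; rfl)
    rw [map_zero, LinearEquiv.apply_symm_apply] at h1
    exact h1.symm
  have htop := sSup_nirr hirr hN
  apply LinearMap.ext
  intro v
  have hker : sSup {M : Submodule (ZMod p) V | NIrr N M} ≤ LinearMap.ker a := by
    apply sSup_le
    intro X hX v hv
    exact hkill X hX v hv
  rw [htop] at hker
  exact hker (Submodule.mem_top (x := v))

/-- the form of the row proved in `H312/HT` -/
def SL25Stmt : Prop := ∀ (p : ℕ) [Fact p.Prime] (V : Type u) [AddCommGroup V] [Module (ZMod p) V] [Finite V]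
  (G : Subgroup (V ≃ₗ[ZMod p] V)) (h : ℕ), (∃ v : V, v ≠ 0) → ¬ p ∣ Nat.card G → Half G h → 2 ≤ h →
  ∀ e : SL25 →* (V ≃ₗ[ZMod p] V), Function.Injective e → (∀ x, e x ∈ G) →
    (∀ g ∈ G, ∀ x, ∃ y, g * e x * g⁻¹ = e y) → FaithSub e.range → Lst p V

theorem sl5Row_of (H : SL25Stmt.{u}) : SL5Row.{u} := by
  intro p _ V _ _ _ G h hp2 hh h2 hG hirr hall S hS hnorm ⟨e⟩
  classical
  rcases subsingleton_or_nontrivial V with hV | hV
  · exfalso
    have h1 : Subsingleton S := ⟨fun a b => Subtype.ext (LinearEquiv.ext fun v => Subsingleton.elim _ _)⟩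
    obtain ⟨a, b, hab⟩ := sl_noncomm
    apply hab
    have h2 := h1.elim (e.symm a) (e.symm b)
    rw [e.symm.injective h2]
  · let l : SL25 →* (V ≃ₗ[ZMod p] V) := S.subtype.comp e.symm.toMonoidHom
    have hl : Function.Injective l := Subtype.val_injective.comp e.symm.injective
    have hrange : l.range = S := by
      apply le_antisymm
      · rintro _ ⟨x, rfl⟩
        exact (e.symm x).2
      · intro s hs
        refine ⟨e ⟨s, hs⟩, ?_⟩
        change ((e.symm (e ⟨s, hs⟩) : S) : V ≃ₗ[ZMod p] V) = s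
        rw [e.symm_apply_apply]
    refine H p V G h (exists_ne 0) hG hh h2 l hl (fun x => hS (e.symm x).2) ?_ ?_
    · intro g hg x
      have h1 : g * l x * g⁻¹ ∈ l.range := by
        rw [hrange]
        exact hnorm g hg _ (e.symm x).2
      obtain ⟨y, hy⟩ := h1
      exact ⟨y, hy.symm⟩
    · rw [hrange]
      exact faithSub_of_homog hirr hnorm (hall S hS hnorm)

end Cfsg.Agent.H960.HT
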