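import Cfsg.Agent.H960.HT.Sl
import Cfsg.Agent.H312.HT.MultTwo
import Cfsg.Agent.H432.HT.Quat

/-! S3540: the SL(2,5) row: no vectors of rank two; the assembly. -/

set_option autoImplicit false
set_option linter.unusedSectionVars false
set_option linter.unusedVariables false

namespace Cfsg.Agent.H960.HT

open Cfsg.Agent.H828.HT Cfsg.Agent.PermutationGroups.AutSL25 Cfsg.Agent.H312.HT Matrix

universe u v

/-- if there are no vectors of rank two then `V` is the natural module -/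
theorem card_eq_of_no_rk2 {K : Type v} [Field K] {V : Type u} [AddCommGroup V] [Module (Matrix (Fin 2) (Fin 2) K) V]
    [Finite V] (hV : ∃ v : V, v ≠ 0) (hno : ∀ v : V, ¬ Rk2 K v) : Nat.card V = Nat.card K ^ 2 := by
  classical
  have hb0 : ∃ b₀ : V, InB K b₀ ∧ b₀ ≠ 0 := by
    by_contra hcon
    push Not at hcon
    have h1 : (eu 0 0 : Matrix (Fin 2) (Fin 2) K) = 0 := faithful hV (fun v => hcon _ (inB_e00 v))
    have h2 := congrFun (congrFun h1 0) 0
    simp at h2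
  obtain ⟨b₀, hb, hne⟩ := hb0
  have hsc0 : ∀ s : K, sc s (0 : V) = 0 := fun s => by unfold sc; rw [smul_zero]
  have h0sc : ∀ v : V, sc (0 : K) v = 0 := fun v => by unfold sc; rw [zero_smul, zero_smul]
  have hsc_inj : ∀ s : K, sc s b₀ = 0 → s = 0 := by
    intro s hs
    by_contra hs0
    apply hne
    have h1 : sc s⁻¹ (sc s b₀) = b₀ := by rw [sc_sc, inv_mul_cancel₀ hs0, sc_one]
    rw [← h1, hs, hsc0]
  have hscB : ∀ s : K, InB K (sc s b₀) := by
    intro s
    unfold InB sc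
    have h1 : (eu 0 0 : Matrix (Fin 2) (Fin 2) K) * (s • (1 : Matrix (Fin 2) (Fin 2) K)) = (s • (1 : Matrix (Fin 2) (Fin 2) K)) * eu 0 0 := by
      rw [mul_smul_comm, smul_mul_assoc, mul_one, one_mul]
    rw [← mul_smul, h1, mul_smul]
    have hb' : (eu 0 0 : Matrix (Fin 2) (Fin 2) K) • b₀ = b₀ := hb
    rw [hb']
  have hall : ∀ b : V, InB K b → ∃ c : K, sc c b₀ = b := by
    intro b hbB
    by_contra hcon
    push Not at hcon
    refine hno (vec K b₀ b) (rk2_vec hb hbB ?_)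
    intro s t hst
    by_cases ht : t = 0
    · subst ht
      rw [h0sc, add_zero] at hst
      exact ⟨hsc_inj s hst, rfl⟩
    · exfalso
      apply hcon (-(t⁻¹ * s))
      have h1 : sc t⁻¹ (sc s b₀ + sc t b) = 0 := by rw [hst, hsc0]
      rw [sc_add, sc_sc, sc_sc, inv_mul_cancel₀ ht, sc_one] at h1
      have h2 : sc (-(t⁻¹ * s)) b₀ + sc (t⁻¹ * s) b₀ = 0 := by rw [← add_sc, neg_add_cancel, h0sc]
      have h3 : sc (-(t⁻¹ * s)) b₀ = -(sc (t⁻¹ * s) b₀) := eq_neg_of_add_eq_zero_left h2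
      rw [h3]
      exact (eq_neg_of_add_eq_zero_right h1).symm
  have hbb : bb K V = Nat.card K := by
    unfold bb
    refine (Nat.card_congr (Equiv.ofBijective (fun s : K => (⟨sc s b₀, hscB s⟩ : {b : V // InB K b})) ⟨?_, ?_⟩)).symm
    · intro s t hst
      have h1 : sc s b₀ = sc t b₀ := congrArg Subtype.val hst
      have h2 : sc (s - t) b₀ + sc t b₀ = sc s b₀ := by rw [← add_sc, sub_add_cancel]
      rw [h1] at h2
      have h3 : sc (s - t) b₀ = 0 := by
        have := h2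
        rwa [add_eq_right] at this
      exact sub_eq_zero.1 (hsc_inj _ h3)
    · rintro ⟨b, hb'⟩
      obtain ⟨c, hc⟩ := hall b hb'
      exact ⟨c, Subtype.ext hc⟩
  rw [card_V_eq (K := K), hbb]

/-- the assembly of the `SL(2,5)` row -/
theorem sl25_of
    (three_free : ∀ (p : ℕ) [Fact p.Prime] (V : Type u) [AddCommGroup V] [Module (ZMod p) V] [Finite V]
      (G : Subgroup (V ≃ₗ[ZMod p] V)) (h : ℕ), ¬ p ∣ Nat.card G → Half G h → 2 ≤ h →
      ∀ e : SL25 →* (V ≃ₗ[ZMod p] V), Function.Injective e → (∀ x, e x ∈ G) →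
        (∀ g ∈ G, ∀ x, ∃ y, g * e x * g⁻¹ = e y) → FaithSub e.range →
        ∀ x, x * x * x = 1 → x ≠ 1 → ∀ v, e x v = v → v = 0)
    (mult_one : ∀ (p : ℕ) [Fact p.Prime] (V : Type u) [AddCommGroup V] [Module (ZMod p) V] [Finite V]
      (G : Subgroup (V ≃ₗ[ZMod p] V)) (h : ℕ) (K : Type) [Field K] [Module (Matrix (Fin 2) (Fin 2) K) V]
      (j : SL25 →* Matrix.SpecialLinearGroup (Fin 2) K) (l : SL25 →* (V ≃ₗ[ZMod p] V)), SetupQ G K j l →
      ¬ p ∣ Nat.card G → Half G h → 2 ≤ h → Nat.card V = Nat.card K ^ 2 → Lst p V) : SL25Stmt.{u} := by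
  intro p _ V _ _ _ G h hV hG hh h2 e he hL hn hF
  obtain ⟨K, _, _, j, hS⟩ := Cfsg.Agent.H432.HT.exists_setup hV hG e he hL hn hF
    (three_free p V G h hG hh h2 e he hL hn hF)
  have hno : ∀ v : V, ¬ Rk2 K v := fun v hv => hS.mult_two hG hh h2 hv
  exact mult_one p V G h K j e hS hG hh h2 (card_eq_of_no_rk2 hV hno)

end Cfsg.Agent.H960.HT
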